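import Cfsg.Agent.H747.IFG.StepC
import Cfsg.Agent.H132.IFG.Final1

/-!
# S5719, `G₂(q)`, `q ≥ 5` odd (helper132, helper747, helper917, helper625, helper244, helper411)
-/

set_option autoImplicit false

namespace Cfsg.Agent.H747.IFG

open Cfsg Cfsg.Lie Cfsg.Agent.H209.Fxy

/-- **`G₂(q)`, `q ≥ 5` odd.** -/
theorem killE_g2_odd (F : Type) [Field F] [Fintype F] (h5 : 5 ≤ Fintype.card F) (hodd : Odd (Fintype.card F))
    (hs : IsSimpleGroup (chevG2.group F)) : KillE (chevG2.group F) :=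
  H132.IFG.killE_g2_of_stepC F h5 hodd hs fun h2 A hz hex hK hB => stepC _ h2 h5 A hz hex hK hB

end Cfsg.Agent.H747.IFG
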